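import Cfsg.Agent.Lib.SL2.Dickson.Main
import Cfsg.Agent.Lib.ClassicalLinear.UnipotentTwo
import Cfsg.Agent.Lib.ClassicalLinear.Card

/-!
# Sylow subgroups of `PSL₂(q)` in the defining characteristic, `q` odd
-/

set_option autoImplicit false
set_option linter.style.haveILetI false
open Matrix

namespace CfsgLib.ZFact

open CfsgLib.ClassicalLinear CfsgLib.SL2.Dickson

variable {F : Type} [Field F] [Fintype F] (p : ℕ) [Fact p.Prime] [CharP F p]

local notation "SL₂" => SpecialLinearGroup (Fin 2) F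
local notation "PSL₂" => ProjectiveSpecialLinearGroup (Fin 2) F

theorem upS_pow (t : F) (n : ℕ) : (upS t : SL₂) ^ n = upS ((n : F) * t) := by
  induction n with
  | zero =>
    rw [pow_zero, Nat.cast_zero, zero_mul]
    exact (SpecialLinearGroup.transvection_coeff_zero _).symm
  | succ n ih =>
    rw [pow_succ, ih, ← upS_add, Nat.cast_succ, add_mul, one_mul]

theorem exists_conj_proj (P : Sylow p PSL₂) : ∃ g : PSL₂,
    g • (upperSLSylow (F := F) p).mapSurjective (proj_surjective (F := F)) = P :=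
  MulAction.exists_smul_eq PSL₂ _ P

theorem pow_eq_one_of_mem_sylow (P : Sylow p PSL₂) {x : PSL₂} (hx : x ∈ (P : Subgroup PSL₂)) :
    x ^ p = 1 := by
  obtain ⟨g, rfl⟩ := exists_conj_proj p P
  obtain ⟨y, hy, rfl⟩ := hx
  obtain ⟨u, hu, rfl⟩ := hy
  obtain ⟨t, rfl⟩ := hu
  show (MulAut.conj g (proj (upS t))) ^ p = 1
  rw [← map_pow, ← map_pow, upS_pow, CharP.cast_eq_zero, zero_mul,
    show (upS (0 : F) : SL₂) = 1 from SpecialLinearGroup.transvection_coeff_zero _, map_one,
    map_one]

theorem card_normalizer_le (hodd : Odd (Fintype.card F)) (P : Sylow p PSL₂) :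
    2 * Nat.card (Subgroup.normalizer ((P : Subgroup PSL₂) : Set PSL₂)) ≤
      Fintype.card F * (Fintype.card F - 1) := by
  classical
  set P0 := (upperSLSylow (F := F) p).mapSurjective (proj_surjective (F := F)) with hP0
  set N := Subgroup.normalizer ((P : Subgroup PSL₂) : Set PSL₂) with hN
  set N0 := Subgroup.normalizer ((P0 : Subgroup PSL₂) : Set PSL₂) with hN0
  have hidx : N.index = N0.index :=
    P.card_eq_index_normalizer.symm.trans P0.card_eq_index_normalizer
  have hcard : Nat.card N = Nat.card N0 := by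
    have h1 := Subgroup.card_mul_index N
    rw [← Subgroup.card_mul_index N0, hidx] at h1
    exact Nat.eq_of_mul_eq_mul_right (Nat.pos_of_ne_zero Subgroup.index_ne_zero_of_finite) h1
  have hS := card_SL_two (F := F) rfl
  have hP := card_PSL_two_of_odd (F := F) rfl hodd
  have hlift : Nat.card (N0.comap (proj (F := F))) = 2 * Nat.card N0 := by
    have hi : (N0.comap (proj (F := F))).index = N0.index :=
      Subgroup.index_comap_of_surjective N0 proj_surjective
    have h1 := Subgroup.card_mul_index (N0.comap (proj (F := F)))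
    rw [hi, hS, ← hP, ← Subgroup.card_mul_index N0, ← mul_assoc] at h1
    exact Nat.eq_of_mul_eq_mul_right (Nat.pos_of_ne_zero Subgroup.index_ne_zero_of_finite) h1
  have hp2 : p ≠ 2 := by
    intro h
    obtain ⟨m, -, hq⟩ := FiniteField.card F p
    rw [hq, h] at hodd
    exact Nat.not_even_iff_odd.2 hodd (Nat.even_pow.2 ⟨even_two, PNat.ne_zero m⟩)
  have hupper : ∀ g : SL₂, g ∈ N0.comap (proj (F := F)) → (g : Matrix (Fin 2) (Fin 2) F) 1 0 = 0 := by
    intro g hg
    have h1 : proj g * proj (upS (1 : F)) * (proj g)⁻¹ ∈ (P0 : Subgroup PSL₂) :=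
      (Subgroup.mem_normalizer_iff.1 hg _).1 ⟨upS 1, ⟨1, rfl⟩, rfl⟩
    obtain ⟨u, ⟨t, rfl⟩, hu⟩ := h1
    rw [← map_inv, ← map_mul, ← map_mul] at hu
    have hz : (upS t)⁻¹ * (g * upS 1 * g⁻¹) ∈ Subgroup.center SL₂ :=
      QuotientGroup.eq.1 hu
    set z := (upS t)⁻¹ * (g * upS 1 * g⁻¹) with hzdef
    have hgz : g * upS 1 * g⁻¹ = upS t * z := by rw [hzdef, mul_inv_cancel_left]
    have hzp : z ^ p = 1 := by
      have h2 : (g * upS 1 * g⁻¹) ^ p = 1 := by
        rw [conj_pow, upS_pow, CharP.cast_eq_zero, zero_mul,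
          show (upS (0 : F) : SL₂) = 1 from SpecialLinearGroup.transvection_coeff_zero _, mul_one,
          mul_inv_cancel]
      rw [hgz, (show Commute (upS t) z from (Subgroup.mem_center_iff.1 hz (upS t))).mul_pow,
        upS_pow, CharP.cast_eq_zero, zero_mul,
        show (upS (0 : F) : SL₂) = 1 from SpecialLinearGroup.transvection_coeff_zero _,
        one_mul] at h2
      exact h2
    have hz2 : z ^ 2 = 1 := by
      obtain ⟨r, hr2, hre⟩ := Matrix.SpecialLinearGroup.mem_center_iff.1 hz
      refine Subtype.ext (show (z : Matrix (Fin 2) (Fin 2) F) ^ 2 = 1 from ?_)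
      rw [← hre, ← map_pow, show r ^ 2 = 1 by simpa using hr2, map_one]
    have hz1 : z = 1 := by
      have h3 : z ^ Nat.gcd p 2 = 1 := pow_gcd_eq_one.2 ⟨hzp, hz2⟩
      rwa [((Nat.coprime_primes (Fact.out : p.Prime) Nat.prime_two).2 hp2).gcd_eq_one, pow_one]
        at h3
    rw [hz1, mul_one] at hgz
    exact upper_of_conj_upS one_ne_zero (mem_upperSL.2 ⟨t, hgz.symm⟩)
  have hle : Nat.card (N0.comap (proj (F := F))) ≤ Nat.card (Fˣ × F) := by
    refine Nat.card_le_card_of_injective (fun g =>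
      (Units.mk0 ((g.1 : Matrix (Fin 2) (Fin 2) F) 0 0) ?_, (g.1 : Matrix (Fin 2) (Fin 2) F) 0 1))
      ?_
    · have hd := g.1.det_coe
      rw [Matrix.det_fin_two, hupper g.1 g.2, mul_zero, sub_zero] at hd
      exact left_ne_zero_of_mul_eq_one hd
    · intro g k hgk
      simp only [Prod.mk.injEq, Units.ext_iff, Units.val_mk0] at hgk
      obtain ⟨h00, h01⟩ := hgk
      have hg := g.1.det_coe
      have hk := k.1.det_coe
      rw [Matrix.det_fin_two, hupper g.1 g.2, mul_zero, sub_zero] at hg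
      rw [Matrix.det_fin_two, hupper k.1 k.2, mul_zero, sub_zero] at hk
      refine Subtype.ext (Subtype.ext (Matrix.ext fun i j => ?_))
      fin_cases i <;> fin_cases j
      · exact h00
      · exact h01
      · exact (hupper g.1 g.2).trans (hupper k.1 k.2).symm
      · have h0 : (g.1 : Matrix (Fin 2) (Fin 2) F) 0 0 ≠ 0 := left_ne_zero_of_mul_eq_one hg
        apply mul_left_cancel₀ h0
        show (g.1 : Matrix (Fin 2) (Fin 2) F) 0 0 * (g.1 : Matrix (Fin 2) (Fin 2) F) 1 1 = _
        rw [hg, h00]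
        exact hk.symm
  rw [hcard, ← hlift]
  refine hle.trans (le_of_eq ?_)
  rw [Nat.card_prod, Nat.card_units, Nat.card_eq_fintype_card]
  ring

end CfsgLib.ZFact
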